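import Mathlib.FieldTheory.Finite.GaloisField
import Cfsg.Agent.S1230
import Cfsg.Agent.Linear.PSL2Spectrum
import Cfsg.Agent.Linear.Card
import Cfsg.Agent.Linear.Congr
import Cfsg.Agent.FGS2.Order7920

/-!
# Recognition of `PSL₂(q)`, `q` even, by order and spectrum
-/

set_option autoImplicit false

namespace Cfsg.Agent.SmallOrder.PSL2Spec

open Subgroup

theorem nonempty_psl_even {G : Type*} [Group G] [Finite G] {F : Type*} [Field F] [Fintype F]
    (h3 : 3 < Fintype.card F) (heven : Even (Fintype.card F))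
    (hspec : Set.range (orderOf : G → ℕ) = Set.range (orderOf : Matrix.ProjectiveSpecialLinearGroup (Fin 2) F → ℕ))
    (hcard : Nat.card G = Nat.card (Matrix.ProjectiveSpecialLinearGroup (Fin 2) F)) :
    Nonempty (G ≃* Matrix.ProjectiveSpecialLinearGroup (Fin 2) F) := by
  classical
  haveI : Fact (Nat.Prime 2) := ⟨Nat.prime_two⟩
  obtain ⟨p, hp⟩ := CharP.exists F
  obtain ⟨n, hpp, hn⟩ := FiniteField.card F p
  haveI : Fact p.Prime := ⟨hpp⟩
  have hp2 : p = 2 := by
    rw [hn] at heven
    exact ((Nat.prime_dvd_prime_iff_eq Nat.prime_two hpp).1 (Nat.prime_two.dvd_of_dvd_pow heven.two_dvd)).symm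
  subst hp2
  have h2 : (Fintype.card F) % 2 = 0 := Nat.even_iff.1 heven
  have hg : Nat.gcd 2 (Fintype.card F - 1) = 1 := Nat.Coprime.gcd_eq_one (Nat.coprime_two_left.2 (Nat.odd_iff.2 (by omega)))
  have hs := Cfsg.Agent.Linear.PSL2Classes.range_orderOf (F := F) 2
  rw [hg, Nat.div_one, Nat.div_one] at hs
  have hc := Cfsg.Agent.Linear.card_PSL_two (F := F)
  rw [hg, ← hcard] at hc
  rw [hs] at hspec
  generalize hq : Fintype.card F = q at *
  have hord : ∀ x : G, orderOf x ∣ 2 ∨ orderOf x ∣ q - 1 ∨ orderOf x ∣ q + 1 := fun x => by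
    have : orderOf x ∈ Set.range (orderOf : G → ℕ) := ⟨x, rfl⟩
    rw [hspec] at this
    exact this
  have hinv : ∀ t : G, orderOf t = 2 → ∀ c ∈ centralizer ({t} : Set G), c ^ 2 = 1 := by
    intro t ht c hcC
    rcases hord c with e | e | e
    · exact orderOf_dvd_iff_pow_eq_one.1 e
    all_goals
      by_cases hc1 : orderOf c = 1
      · rw [orderOf_eq_one_iff.1 hc1, one_pow]
      exfalso
      have hodd : ¬ 2 ∣ orderOf c := fun hd => by have := hd.trans e; omega
      have hne : orderOf c ≠ 1 → False := fun hne => by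
        have ho : orderOf (t * c) = 2 * orderOf c := by
          rw [(show Commute t c from (mem_centralizer_singleton_iff.1 hcC).symm).orderOf_mul_eq_mul_orderOf_of_coprime
            (by rw [ht]; exact (Nat.Prime.coprime_iff_not_dvd Nat.prime_two).2 hodd), ht]
        rcases hord (t * c) with e' | e' | e' <;> rw [ho] at e'
        · have h1 := Nat.le_of_dvd two_pos e'
          have := orderOf_pos c
          omega
        · have := (dvd_mul_right 2 (orderOf c)).trans e'
          omega
        · have := (dvd_mul_right 2 (orderOf c)).trans e'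
          omega
      exact hne hc1
  have hcard' : Nat.card G = q * ((q - 1) * (q + 1)) := by
    rw [one_mul] at hc
    rw [hc]
    congr 1
    first
      | simpa [mul_comm] using Nat.sq_sub_sq q 1
      | (rw [mul_comm]; simpa using Nat.sq_sub_sq q 1)
  obtain ⟨T⟩ := (inferInstance : Nonempty (Sylow 2 G))
  have hT : Nat.card T = q := by
    rw [Sylow.card_eq_multiplicity, hcard', hn]
    have hnd : ¬ 2 ∣ (2 ^ (n : ℕ) - 1) * (2 ^ (n : ℕ) + 1) := fun hd => by
      rcases Nat.prime_two.dvd_mul.1 hd with e | e <;> omega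
    rw [Nat.factorization_mul (by positivity) (fun e => hnd (by rw [e]; exact dvd_zero 2))]
    simp [Nat.factorization_eq_zero_of_not_dvd hnd, Nat.prime_two.factorization_self]
  have hTexp : ∀ x ∈ (T : Subgroup G), x ^ 2 = 1 := fun x hx => by
    obtain ⟨k, hk⟩ := T.2 ⟨x, hx⟩
    have hk' : x ^ 2 ^ k = 1 := congrArg Subtype.val hk
    obtain ⟨i, -, hi⟩ := (Nat.dvd_prime_pow Nat.prime_two).1 (orderOf_dvd_of_pow_eq_one hk')
    apply orderOf_dvd_iff_pow_eq_one.1
    rcases Nat.eq_zero_or_pos i with rfl | hi0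
    · rw [hi]; norm_num
    rcases hord x with e | e | e
    · exact e
    all_goals
      have := (show 2 ∣ orderOf x by rw [hi]; exact dvd_pow_self 2 (by omega)).trans e
      omega
  have hnc : ¬ IsCyclic (T : Subgroup G) := fun hcy => by
    haveI := hcy
    obtain ⟨x, hx⟩ := IsCyclic.exists_ofOrder_eq_natCard (α := (T : Subgroup G))
    have h1 := orderOf_dvd_of_pow_eq_one (hTexp (x : G) x.2)
    rw [orderOf_coe, hx, hT] at h1
    have := Nat.le_of_dvd two_pos h1
    omega
  have hnn : ¬ (T : Subgroup G).Normal := fun hTn => by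
    haveI := hTn
    obtain ⟨b, hb⟩ : q + 1 ∈ Set.range (orderOf : G → ℕ) := hspec ▸ Or.inr (Or.inr dvd_rfl)
    have hfree := Cfsg.Agent.FGS2.Order7920.free_dvd (zpowers b) (T : Subgroup G)
      (fun x _ => by rw [Subgroup.normalizer_eq_top (T : Subgroup G)]; trivial) (fun s hs hs1 x hx hx1 hsx => by
        have hxo : orderOf x = 2 := orderOf_eq_prime (hTexp x hx) hx1
        have hs2 := orderOf_dvd_iff_pow_eq_one.2 (hinv x hxo s (mem_centralizer_singleton_iff.2 hsx.eq))
        have hsb : orderOf s ∣ q + 1 := hb ▸ orderOf_dvd_of_mem_zpowers hs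
        rcases (Nat.dvd_prime Nat.prime_two).1 hs2 with e | e
        · exact hs1 (orderOf_eq_one_iff.1 e)
        · rw [e] at hsb; omega)
    rw [Nat.card_zpowers, hb, hT] at hfree
    have := Nat.le_of_dvd (by omega) hfree
    omega
  obtain ⟨F', iF, iF', hF', ⟨e⟩⟩ := Cfsg.Agent.S1230.result T hnc hnn (fun t ht =>
    ⟨⟨⟨fun x y => Subtype.ext (by
      have hx := hinv t ht x x.2
      have hy := hinv t ht y y.2
      have hxy := hinv t ht _ ((centralizer ({t} : Set G)).mul_mem x.2 y.2)
      rw [pow_two] at hx hy hxy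
      show (x : G) * y = y * x
      calc (x : G) * y = ((x : G) * y)⁻¹ := (inv_eq_of_mul_eq_one_right hxy).symm
        _ = (y : G)⁻¹ * (x : G)⁻¹ := mul_inv_rev _ _
        _ = y * x := by rw [inv_eq_of_mul_eq_one_right hx, inv_eq_of_mul_eq_one_right hy])⟩⟩, hinv t ht⟩)
  exact ⟨e.trans (Cfsg.Agent.Linear.pslCongr (FiniteField.ringEquivOfCardEq (by rw [hF', hT, hq])))⟩

end Cfsg.Agent.SmallOrder.PSL2Spec
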